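import Cfsg.Agent.H17.SelfCent

set_option autoImplicit false

/-!
# The kernel of a map to a `p`-group of order prime to `p` is characteristic; transitive groups of prime degree (helper17)
-/

namespace Cfsg.Agent.H17

open Subgroup MulAction

universe u v

theorem mem_ker_iff_not_dvd {p : ℕ} [hp : Fact p.Prime] {N : Type u} [Group N] [Finite N] {Q : Type v} [Group Q]
    (hQ : IsPGroup p Q) (f : N →* Q) (hf : ¬ p ∣ Nat.card f.ker) (x : N) : x ∈ f.ker ↔ ¬ p ∣ orderOf x := by
  constructor
  · intro hx h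
    exact hf (h.trans (Subgroup.orderOf_dvd_natCard _ hx))
  · intro h
    rw [MonoidHom.mem_ker]
    obtain ⟨k, hk⟩ := hQ (f x)
    have h1 : orderOf (f x) ∣ p ^ k := orderOf_dvd_of_pow_eq_one hk
    have h2 : orderOf (f x) ∣ orderOf x := orderOf_map_dvd f x
    have h3 : Nat.Coprime (orderOf x) (p ^ k) := by
      apply Nat.Coprime.pow_right
      rw [Nat.coprime_comm]
      exact (Nat.Prime.coprime_iff_not_dvd hp.out).mpr h
    have h4 : orderOf (f x) ∣ 1 := by
      rw [← h3.gcd_eq_one]
      exact Nat.dvd_gcd h2 h1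
    exact orderOf_eq_one_iff.mp (Nat.dvd_one.mp h4)

theorem ker_characteristic {p : ℕ} [hp : Fact p.Prime] {N : Type u} [Group N] [Finite N] {Q : Type v} [Group Q]
    (hQ : IsPGroup p Q) (f : N →* Q) (hf : ¬ p ∣ Nat.card f.ker) : f.ker.Characteristic := by
  refine ⟨fun φ => ?_⟩
  ext x
  rw [mem_comap, mem_ker_iff_not_dvd hQ f hf, mem_ker_iff_not_dvd hQ f hf]
  have : orderOf (φ.toMonoidHom x) = orderOf x := MulEquiv.orderOf_eq φ x
  rw [this]

/-- If `N ⊴ G`, `P` Sylow in `N` with `N_N(P) ≤ C_N(P)`, the normal complement of `P` in `N` is normal in `G`. -/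
theorem exists_normal_complement {p : ℕ} [hp : Fact p.Prime] {G : Type u} [Group G] [Finite G]
    (N : Subgroup G) [N.Normal] (P : Sylow p N)
    (h : normalizer ((P : Subgroup N) : Set N) ≤ centralizer ((P : Subgroup N) : Set N)) :
    ∃ K : Subgroup G, K.Normal ∧ K ≤ N ∧ ¬ p ∣ Nat.card K ∧ Nat.card K * Nat.card P = Nat.card N := by
  have h1 := MonoidHom.ker_transferSylow_isComplement' P h
  have h2 := MonoidHom.not_dvd_card_ker_transferSylow P h
  have h3 := ker_characteristic P.2 (MonoidHom.transferSylow P h) h2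
  refine ⟨(MonoidHom.transferSylow P h).ker.map N.subtype, ?_, ?_, ?_, ?_⟩
  · infer_instance
  · exact map_subtype_le _
  · rwa [Nat.card_congr ((MonoidHom.transferSylow P h).ker.equivMapOfInjective N.subtype
      N.subtype_injective).symm.toEquiv]
  · rw [Nat.card_congr ((MonoidHom.transferSylow P h).ker.equivMapOfInjective N.subtype
      N.subtype_injective).symm.toEquiv]
    exact h1.card_mul_card

end Cfsg.Agent.H17
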